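import Mathlib
import Cfsg.Agent.H208.ConjSS

/-!
# Minus type: involutions in the image of the semisimilarity group are linear (helper200)

`no_order_two` : `Q` good of dimension `2m` without totally singular subspace of dimension `m`, `q` odd; a semisimilarity
`M` with non-trivial field automorphism does not induce an involution.
`linear_of_sq` : `Psi Q M ^ 2 = 1` implies that `M` is a similarity.
-/

set_option autoImplicit false

namespace Cfsg.Agent.H200.MinusOrd

open Module QuadraticMap Cfsg.Agent.LieClassical.OrthCore Cfsg.Agent.LieClassical.OrthTrans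
  Cfsg.Agent.ClassicalGeometry.OrthSemi Cfsg.Agent.H208.Parity Cfsg.Agent.H208.ConjSS Cfsg.Agent.H208.Frame
  Cfsg.Agent.H208.FramePar Cfsg.Agent.CpAut.Descent Cfsg.Agent.H966.Frob Cfsg.Agent.AutOrth.SemiSim

variable {F : Type*} [Field F]

/-- An element of the fixed field of a non-trivial automorphism of order two is a square. -/
theorem isSquare_of_fixed [Finite F] (h2 : (2 : F) ≠ 0) {σ : F ≃+* F} (hσ : σ ≠ 1) (hσ2 : σ * σ = 1)
    {d : F} (hd : σ d = d) : IsSquare d := by
  by_cases hd0 : d = 0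
  · exact ⟨0, by rw [hd0, mul_zero]⟩
  obtain ⟨x, hx⟩ : ∃ x, σ x ≠ x := by
    by_contra hcon
    push Not at hcon
    exact hσ (RingEquiv.ext hcon)
  have hσσ : σ (σ x) = x := DFunLike.congr_fun hσ2 x
  let n : F := x - σ x
  have hn0 : n ≠ 0 := sub_ne_zero.2 hx.symm
  have hn : σ n = -n := by
    change σ (x - σ x) = -(x - σ x)
    rw [map_sub, hσσ]; ring
  let K := fix σ
  have : Finite K := Subtype.finite
  have hmem : ∀ {y : F}, y ∈ K ↔ σ y = y := Iff.rfl
  have h2K : (2 : K) ≠ 0 := by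
    intro h
    apply h2
    have h3 : ((2 : K) : F) = ((0 : K) : F) := congrArg (Subtype.val : K → F) h
    push_cast at h3
    exact h3
  let dK : K := ⟨d, hd⟩
  let nK : K := ⟨n * n, by
    change σ (n * n) = n * n
    rw [map_mul, hn]; ring⟩
  have hnK : ¬ IsSquare nK := by
    rintro ⟨r, hr⟩
    have h1 : n * n = (r : F) * r := congrArg (Subtype.val : K → F) hr
    have h3 : σ (r : F) = r := r.2
    rcases mul_self_eq_mul_self_iff.1 h1 with h4 | h4
    · rw [h4, h3] at hn
      rw [h4] at hn0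
      have h5 : (2 : F) * r = 0 := by linear_combination hn
      exact hn0 ((mul_eq_zero.1 h5).resolve_left h2)
    · rw [h4, map_neg, h3, neg_neg] at hn
      rw [h4] at hn0
      have h5 : (2 : F) * r = 0 := by linear_combination -hn
      exact hn0 (by rw [(mul_eq_zero.1 h5).resolve_left h2, neg_zero])
  have hdK0 : dK ≠ 0 := fun h => hd0 (congrArg (Subtype.val : K → F) h)
  have hnK0 : nK ≠ 0 := fun h => mul_ne_zero hn0 hn0 (congrArg (Subtype.val : K → F) h)
  by_cases hs : IsSquare dK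
  · obtain ⟨r, hr⟩ := hs
    exact ⟨r, congrArg (Subtype.val : K → F) hr⟩
  · have h3 : IsSquare (dK * nK) :=
      (ClassicalGeometry.Universal.isSquare_mul_iff h2K hdK0 hnK0).2
        ⟨fun h => absurd h hs, fun h => absurd h hnK⟩
    obtain ⟨r, hr⟩ := h3
    have hr' : d * (n * n) = (r : F) * r := congrArg (Subtype.val : K → F) hr
    refine ⟨r / n, ?_⟩
    field_simp
    linear_combination hr'

theorem exists_root [Finite F] (h2 : (2 : F) ≠ 0) {σ : F ≃+* F} (hσ : σ ≠ 1) (hσ2 : σ * σ = 1)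
    {a b : F} (ha : σ a = a) (hb : σ b = b) : ∃ s : F, s ^ 2 + a * s + b = 0 := by
  obtain ⟨r, hr⟩ := isSquare_of_fixed h2 hσ hσ2 (d := a ^ 2 - 4 * b) (by
    rw [map_sub, map_mul, map_pow, ha, hb, map_ofNat])
  refine ⟨(-a + r) / 2, ?_⟩
  field_simp
  linear_combination -hr

variable {V : Type*} [AddCommGroup V] [Module F V] [FiniteDimensional F V] {Q : QuadraticForm F V}

theorem no_order_two [Finite F] (hG : Good Q) (h2 : (2 : F) ≠ 0) {m : ℕ} (hV : finrank F V = 2 * m)
    (hT : ¬ ∃ U, TSm Q m U) {M : Gam Q} {σ : F ≃+* F} {c : F} (hM : IsSS Q σ c M.1) (hσ : σ ≠ 1)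
    (h : Psi Q M ^ 2 = 1) : False := by
  have := nontrivial_of_good hG
  obtain ⟨ho, t, ht⟩ := exists_normal hG hM hσ Nat.prime_two h
  obtain ⟨d, hd⟩ := isSS_scal_mul hM t
  have hσ2 : σ * σ = 1 := by rw [← _root_.sq, ← ho, pow_orderOf_eq_one]
  rcases normal_form hG.nondeg hd ho (by norm_num) ht with ⟨k, hk, -⟩ | ⟨k, hk, hf⟩ | ⟨k, hk, a, b, ha, hb, -, hf⟩
  · omega
  · obtain rfl : m = k := by omega
    exact hT (tsm_of_fr_plus hf)
  · obtain ⟨s, hs⟩ := exists_root h2 hσ hσ2 ha hb
    obtain ⟨g, e, he, hq, hg⟩ := hf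
    obtain rfl : m = k + 1 := by omega
    exact hT ⟨_, tsm_map (m := k + 1) hq (finrank_cM k s) fun x hx => minus_cM hs hx⟩

end Cfsg.Agent.H200.MinusOrd
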